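import Cfsg.Agent.H116.LB.KEq
import Cfsg.Agent.H416.LB.MuTab
import Cfsg.Agent.H329.LB.Spher

/-!
# The characters of multiplicity one in terms of the tables (helper116, for S4879)

* `H6`, `H7` : the counts of the table of the node 6 (26 classes) resp. of the node 7 (5 classes);
* `IsAt h t av φ` : `φ` has a spherical function with the values `av` on the classes; `IsAt.inj`;
* `cls6`, `cls7` : an irreducible character of multiplicity one in `1_{W_J}^W` is one of the ten resp. five in the table,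
  with its degree; `univ6`, `univ7` : only the index `0` belongs to the trivial character.
-/

set_option autoImplicit false
set_option linter.unusedSectionVars false

namespace Cfsg.Agent.H116.LB

open Cfsg CoxeterSystem Cfsg.Agent.H967.Sph Cfsg.Agent.ChevalleyStructure.CoxeterGeom Cfsg.Agent.Tits.Roots
  Cfsg.Agent.Tits.Core Cfsg.Agent.Tits.Exchange Cfsg.Agent.H348.LB Cfsg.Agent.H416.LB
open Cfsg.Agent.H439.CC (mu)
open scoped ComplexConjugate

universe u

variable {I : Type*} {W : Type u} [Fintype I] [DecidableEq I] [Group W] [Fintype W] {M : CoxeterMatrix I}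
  {cs : CoxeterSystem M W} {A : I → I → ℤ} {h : IsCartan M A} {j : I} {N m : ℕ}

/-- the counts of the table, node 6 -/
structure H6 (t : Tab A j N 26) (ω1 ω9 ω2 : List I) : Prop where
  o : t.cls t.o = 0
  c1 : t.cls (zz t ω1 t.o) = 1
  c9 : t.cls (zz t ω9 t.o) = 9
  c2 : t.cls (zz t ω2 t.o) = 2
  K1 : ∀ c x : Fin 26, (Finset.univ.filter fun s => t.cls s = c ∧ t.cls (zz t ω1 s) = x).card = K61 c x
  K9 : ∀ c x : Fin 26, (Finset.univ.filter fun s => t.cls s = c ∧ t.cls (zz t ω9 s) = x).card = K69 c x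
  k2 : ∀ x : Fin 26, (Finset.univ.filter fun s => t.cls s = 2 ∧ t.cls (zz t ω2 s) = x).card = k62 x
  sz : ∀ c, sz t c = sz6 c

/-- the counts of the table, node 7 -/
structure H7 (t : Tab A j N 5) (ω1 : List I) : Prop where
  o : t.cls t.o = 0
  c1 : t.cls (zz t ω1 t.o) = 1
  K1 : ∀ c x : Fin 5, (Finset.univ.filter fun s => t.cls s = c ∧ t.cls (zz t ω1 s) = x).card = K71 c x
  sz : ∀ c, sz t c = sz7 c

/-- the character `φ` has a spherical function with the values `av` on the classes -/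
def IsAt (h : IsCartan M A) (cs : CoxeterSystem M W) (t : Tab A j N m) (av : Fin m → ℚ) (φ : W → ℂ)
    [Fintype (WJ cs {i | i ≠ j})] : Prop :=
  ∃ (F : W → ℂ) (f : Fin N → ℂ), Sph (WJ cs {i | i ≠ j}) φ F ∧ (∀ w, f (t.sw cs h w) = F w) ∧
    ∀ c, f (t.crep c) = (av c : ℚ)

theorem card_states (t : Tab A j N m) : N = ∑ c, sz t c := by
  have h1 := Finset.card_eq_sum_card_fiberwise (f := t.cls) (s := (Finset.univ : Finset (Fin N)))
    (t := (Finset.univ : Finset (Fin m))) (fun _ _ => Finset.mem_univ _)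
  rw [Finset.card_univ, Fintype.card_fin] at h1
  exact h1

variable [Fintype (WJ cs {i | i ≠ j})]

theorem IsAt.inj {t : Tab A j N m} {av : Fin m → ℚ} {φ φ' : W → ℂ} (h1 : IsAt h cs t av φ)
    (h2 : IsAt h cs t av φ') : φ = φ' := by
  obtain ⟨F, f, a1, a2, a3⟩ := h1
  obtain ⟨F', f', b1, b2, b3⟩ := h2
  exact _root_.Cfsg.Agent.H116.LB.inj a1 b1 a2 b2 fun c => by rw [a3, b3]

theorem IsAt.inj_irr {t : Tab A j N m} {av : Fin m → ℚ} {φ φ' : IrrCharacter W} (h1 : IsAt h cs t av (φ : W → ℂ))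
    (h2 : IsAt h cs t av (φ' : W → ℂ)) : φ = φ' := Subtype.ext (h1.inj h2)

/-- the degree -/
theorem deg_of {t : Tab A j N m} {av : Fin m → ℚ} {φ F : W → ℂ} (hF : Sph (WJ cs {i | i ≠ j}) φ F)
    {f : Fin N → ℂ} (hf : ∀ w, f (t.sw cs h w) = F w) (ha : ∀ c, f (t.crep c) = (av c : ℚ))
    (hinv : ∀ g, F g⁻¹ = conj (F g)) {d : ℕ} (hN : N ≠ 0)
    (hd : (d : ℚ) * ∑ c, (sz t c : ℚ) * (av c * av c) = N) : φ 1 = d := by
  have h1 := norm hF hf (fun c => by rw [ha, map_ratCast]) hinv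
  have h2 : ∑ c, (sz t c : ℂ) * f (t.crep c) ^ 2 = ((∑ c, (sz t c : ℚ) * (av c * av c) : ℚ) : ℂ) := by
    push_cast
    exact Finset.sum_congr rfl fun c _ => by rw [ha, sq]
  rw [h2] at h1
  have h3 := congrArg (fun z : ℚ => (z : ℂ)) hd
  push_cast at h3
  push_cast at h1
  have h4 : (∑ c, (sz t c : ℂ) * ((av c : ℂ) * av c)) ≠ 0 := by
    intro h0
    rw [h0, mul_zero] at h1
    exact hN (by exact_mod_cast h1.symm)
  exact mul_right_cancel₀ h4 (h1.trans h3.symm)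

/-- **The characters of multiplicity one, node 6.** -/
theorem cls6 {t : Tab A j N 26} {ω1 ω9 ω2 : List I} (H : H6 t ω1 ω9 ω2) (phi : IrrCharacter W)
    (hmu : mu (WJ cs {i | i ≠ j}) (phi : W → ℂ) = 1) :
    ∃ (F : W → ℂ) (f : Fin N → ℂ) (k : Fin 10), Sph (WJ cs {i | i ≠ j}) (phi : W → ℂ) F ∧
      (∀ w, f (t.sw cs h w) = F w) ∧ (∀ c, f (t.crep c) = (av6 k c : ℚ)) ∧ (phi : W → ℂ) 1 = dg6 k := by
  obtain ⟨F, hF, hinv⟩ := H329.LB.Spher.sph_of_mu (WJ cs {i | i ≠ j}) phi hmu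
  obtain ⟨f, hf⟩ := exists_f hF h t
  have ho : f (t.crep 0) = 1 := by
    rw [← H.o, ← f_cls hF hf, f_o hF hf]
  obtain ⟨k, hk⟩ := solve6 (fun c => f (t.crep c)) ho
    (fun c => by
      have h1 := keq' hF hf ω1 c
      rw [H.c1, H.sz] at h1
      rw [← h1]
      exact Finset.sum_congr rfl fun x _ => by rw [← H.K1])
    (fun c => by
      have h1 := keq' hF hf ω9 c
      rw [H.c9, H.sz] at h1
      rw [← h1]
      exact Finset.sum_congr rfl fun x _ => by rw [← H.K9])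
    (by
      have h1 := keq' hF hf ω2 2
      rw [H.c2, H.sz] at h1
      rw [← h1]
      exact Finset.sum_congr rfl fun x _ => by rw [← H.k2])
  have hN : N = 6720 := by
    rw [card_states t, Finset.sum_congr rfl fun c _ => H.sz c]
    decide +kernel
  refine ⟨F, f, k, hF, hf, hk, deg_of (av := av6 k) hF hf hk hinv (by rw [hN]; norm_num) ?_⟩
  rw [Finset.sum_congr rfl fun c _ => by rw [H.sz c], dg6_spec, hN]
  norm_num

/-- **The characters of multiplicity one, node 7.** -/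
theorem cls7 {t : Tab A j N 5} {ω1 : List I} (H : H7 t ω1) (phi : IrrCharacter W)
    (hmu : mu (WJ cs {i | i ≠ j}) (phi : W → ℂ) = 1) :
    ∃ (F : W → ℂ) (f : Fin N → ℂ) (k : Fin 5), Sph (WJ cs {i | i ≠ j}) (phi : W → ℂ) F ∧
      (∀ w, f (t.sw cs h w) = F w) ∧ (∀ c, f (t.crep c) = (av7 k c : ℚ)) ∧ (phi : W → ℂ) 1 = dg7 k := by
  obtain ⟨F, hF, hinv⟩ := H329.LB.Spher.sph_of_mu (WJ cs {i | i ≠ j}) phi hmu
  obtain ⟨f, hf⟩ := exists_f hF h t
  have ho : f (t.crep 0) = 1 := by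
    rw [← H.o, ← f_cls hF hf, f_o hF hf]
  obtain ⟨k, hk⟩ := solve7 (fun c => f (t.crep c)) ho
    (fun c => by
      have h1 := keq' hF hf ω1 c
      rw [H.c1, H.sz] at h1
      rw [← h1]
      exact Finset.sum_congr rfl fun x _ => by rw [← H.K1])
  have hN : N = 240 := by
    rw [card_states t, Finset.sum_congr rfl fun c _ => H.sz c]
    decide +kernel
  refine ⟨F, f, k, hF, hf, hk, deg_of (av := av7 k) hF hf hk hinv (by rw [hN]; norm_num) ?_⟩
  rw [Finset.sum_congr rfl fun c _ => by rw [H.sz c], dg7_spec, hN]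
  norm_num

/-! ### the trivial character -/

theorem sum_av6 : ∀ k : Fin 10, k ≠ 0 → ∑ c, (sz6 c : ℚ) * av6 k c = 0 := by
  intro k hk
  have h : ∀ k : Fin 10, k ≠ 0 → ((List.finRange 26).map fun c => (sz6 c : ℤ) * AM k c).sum = 0 := by decide +kernel
  have h0 := h k hk
  rw [← sum_fin] at h0
  have h1 := congrArg (fun z : ℤ => (z : ℚ)) h0
  push_cast at h1
  have h2 : ∑ c, (sz6 c : ℚ) * av6 k c = (1 / 1080) * ∑ c, (sz6 c : ℚ) * (AM k c : ℚ) := by
    rw [Finset.mul_sum]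
    exact Finset.sum_congr rfl fun c _ => by rw [av6]; ring
  rw [h2, h1, mul_zero]

theorem sum_av7 : ∀ k : Fin 5, k ≠ 0 → ∑ c, (sz7 c : ℚ) * av7 k c = 0 := by
  intro k hk
  have h : ∀ k : Fin 5, k ≠ 0 → ((List.finRange 5).map fun c => (sz7 c : ℤ) * A5 k c).sum = 0 := by decide +kernel
  have h0 := h k hk
  rw [← sum_fin] at h0
  have h1 := congrArg (fun z : ℤ => (z : ℚ)) h0
  push_cast at h1
  have h2 : ∑ c, (sz7 c : ℚ) * av7 k c = (1 / 84) * ∑ c, (sz7 c : ℚ) * (A5 k c : ℚ) := by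
    rw [Finset.mul_sum]
    exact Finset.sum_congr rfl fun c _ => by rw [av7]; ring
  rw [h2, h1, mul_zero]

theorem sum_zero {t : Tab A j N m} {av : Fin m → ℚ} {φ : W → ℂ} (h1 : IsAt h cs t av φ)
    (h0 : ∑ c, (sz t c : ℚ) * av c = 0) : ∑ w, φ w = 0 := by
  obtain ⟨F, f, hF, hf, ha⟩ := h1
  rw [sum_univ hF hf]
  have h2 : ∑ c, (sz t c : ℂ) * f (t.crep c) = ((∑ c, (sz t c : ℚ) * av c : ℚ) : ℂ) := by
    push_cast
    exact Finset.sum_congr rfl fun c _ => by rw [ha]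
  rw [h2, h0, Rat.cast_zero, mul_zero]


theorem mu_univ (φ : W → ℂ) : mu (WJ cs (Set.univ : Set I)) φ = (Nat.card W : ℂ)⁻¹ * ∑ w, φ w := by
  have h1 : ∀ w : W, w ∈ WJ cs (Set.univ : Set I) := fun w => by
    obtain ⟨ω, rfl⟩ := cs.wordProd_surjective w
    exact wordProd_mem_WJ cs fun _ _ => Set.mem_univ _
  have e : WJ cs (Set.univ : Set I) ≃ W :=
    { toFun := fun x => x.1, invFun := fun w => ⟨w, h1 w⟩, left_inv := fun _ => rfl, right_inv := fun _ => rfl }
  have h2 : ∑ᶠ x : WJ cs (Set.univ : Set I), φ x = ∑ w, φ w := by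
    rw [← finsum_eq_sum_of_fintype]
    exact finsum_eq_of_bijective (fun x : WJ cs (Set.univ : Set I) => (x : W))
      ⟨Subtype.val_injective, fun w => ⟨⟨w, h1 w⟩, rfl⟩⟩ fun _ => rfl
  rw [mu, h2, Nat.card_congr e]

/-- only the index `0` belongs to the trivial character, node 6 -/
theorem univ6 {t : Tab A j N 26} {ω1 ω9 ω2 : List I} (H : H6 t ω1 ω9 ω2) {φ : W → ℂ} {k : Fin 10}
    (hk : IsAt h cs t (av6 k) φ) (hmu : mu (WJ cs (Set.univ : Set I)) φ ≠ 0) : k = 0 := by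
  by_contra hne
  refine hmu ?_
  rw [mu_univ, sum_zero hk ?_, mul_zero]
  rw [Finset.sum_congr rfl fun c _ => by rw [H.sz c]]
  exact sum_av6 k hne

/-- only the index `0` belongs to the trivial character, node 7 -/
theorem univ7 {t : Tab A j N 5} {ω1 : List I} (H : H7 t ω1) {φ : W → ℂ} {k : Fin 5}
    (hk : IsAt h cs t (av7 k) φ) (hmu : mu (WJ cs (Set.univ : Set I)) φ ≠ 0) : k = 0 := by
  by_contra hne
  refine hmu ?_
  rw [mu_univ, sum_zero hk ?_, mul_zero]
  rw [Finset.sum_congr rfl fun c _ => by rw [H.sz c]]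
  exact sum_av7 k hne

end Cfsg.Agent.H116.LB
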