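import Cfsg.Agent.H348.LB.Tr

/-!
# The equations of a spherical function on the classes of states (helper116, for S4879)

`t : Tab A j N m`, `Sph (W_J) φ F`, `f (sw w) = F w`; `zz t ω s` = the state `s` moved by the word `ω`;
`sz t c` = the number of states of the class `c`.

* `f_cls` : `f s = f (crep (cls s))`; `keq`, `keq'` : the product formula; `norm` : the degree; `inj` : the character is
  determined by the values on the classes; `sum_univ` : the sum of all values.
-/

set_option autoImplicit false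
set_option linter.unusedSectionVars false

namespace Cfsg.Agent.H116.LB

open Cfsg CoxeterSystem Cfsg.Agent.H967.Sph Cfsg.Agent.ChevalleyStructure.CoxeterGeom Cfsg.Agent.Tits.Roots
  Cfsg.Agent.Tits.Core Cfsg.Agent.Tits.Exchange Cfsg.Agent.H348.LB
open scoped ComplexConjugate

variable {I W : Type*} [Fintype I] [DecidableEq I] [Group W] [Fintype W] {M : CoxeterMatrix I}
  {cs : CoxeterSystem M W} {A : I → I → ℤ} {h : IsCartan M A} {j : I} {N m : ℕ}

/-- the action of a word on the states -/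
def zz (t : Tab A j N m) (ω : List I) (s : Fin N) : Fin N := ω.foldl (fun b i => t.st i b) s

/-- the number of states of a class -/
def sz (t : Tab A j N m) (c : Fin m) : ℕ := (Finset.univ.filter fun s => t.cls s = c).card

variable {t : Tab A j N m}

theorem cls_zz : ∀ (ω : List I), (∀ i ∈ ω, i ≠ j) → ∀ (s : Fin N), t.cls (zz t ω s) = t.cls s := by
  intro ω
  induction ω with
  | nil => intro _ s; rfl
  | cons i ω ih =>
    intro hω s
    show t.cls (zz t ω (t.st i s)) = _
    rw [ih (fun k hk => hω k (List.mem_cons_of_mem _ hk)), t.cls_st i (hω i List.mem_cons_self)]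

theorem cls_crep (s : Fin N) : t.cls (t.crep (t.cls s)) = t.cls s := by
  have h1 := cls_zz (t := t) (t.cpath s) (t.cpath_ne s) (t.crep (t.cls s))
  have h2 : zz t (t.cpath s) (t.crep (t.cls s)) = s := t.cpath_spec s
  rw [h2] at h1
  exact h1.symm

theorem cls_sw_mul (w : W) {p : W} (hp : p ∈ WJ cs {i | i ≠ j}) : t.cls (t.sw cs h (w * p)) = t.cls (t.sw cs h w) := by
  obtain ⟨ω, hω, rfl⟩ := exists_word_of_mem_WJ cs hp
  rw [Tab.sw_wordProd]
  exact cls_zz ω (fun i hi => hω i hi) _

theorem sum_cls {E : Type*} [AddCommMonoid E] (ψ : Fin N → E) :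
    ∑ c, ∑ s ∈ Finset.univ.filter (fun s => t.cls s = c), ψ s = ∑ s, ψ s :=
  Finset.sum_fiberwise _ _ _

variable [Fintype (WJ cs {i | i ≠ j})] {φ F : W → ℂ} (hF : Sph (WJ cs {i | i ≠ j}) φ F)
  {f : Fin N → ℂ} (hf : ∀ w, f (t.sw cs h w) = F w)

include hF hf in
/-- (1) -/
theorem f_cls (s : Fin N) : f s = f (t.crep (t.cls s)) := by
  have h1 := f_foldl hF hf (t.cpath s) (t.cpath_ne s) (t.crep (t.cls s))
  rw [t.cpath_spec s] at h1
  exact h1

/-- the average over an orbit -/
theorem sum_orbit {y : W} {c : Fin m} (hy : t.cls (t.sw cs h y) = c) (ψ : Fin N → ℂ) :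
    (sz t c : ℂ) * ∑ p : WJ cs {i | i ≠ j}, ψ (t.sw cs h (y * p)) =
      Nat.card (WJ cs {i | i ≠ j}) * ∑ s ∈ Finset.univ.filter (fun s => t.cls s = c), ψ s := by
  classical
  set n0 := (Finset.univ.filter fun p : WJ cs {i | i ≠ j} => t.sw cs h (y * p) = t.sw cs h y).card with hn0
  have hmaps : ∀ p ∈ (Finset.univ : Finset (WJ cs {i | i ≠ j})),
      t.sw cs h (y * p) ∈ Finset.univ.filter (fun s => t.cls s = c) := fun p _ => by
    rw [Finset.mem_filter]
    exact ⟨Finset.mem_univ _, (cls_sw_mul y p.2).trans hy⟩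
  -- the fibres
  have hfib : ∀ s ∈ Finset.univ.filter (fun s => t.cls s = c),
      (Finset.univ.filter fun p : WJ cs {i | i ≠ j} => t.sw cs h (y * p) = s).card = n0 := by
    intro s hs
    have hs' : t.cls s = c := (Finset.mem_filter.1 hs).2
    -- `s = sw (y p₀)`
    obtain ⟨p0, hp0⟩ : ∃ p0 : WJ cs {i | i ≠ j}, t.sw cs h (y * p0) = s := by
      have e1 := t.cpath_spec s
      have e2 := t.cpath_spec (t.sw cs h y)
      rw [hs'] at e1
      rw [hy] at e2
      have e3 : t.crep c = (t.cpath (t.sw cs h y)).reverse.foldl (fun b i => t.st i b) (t.sw cs h y) := by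
        have key : ∀ (ω : List I) (s : Fin N),
            ω.reverse.foldl (fun b i => t.st i b) (ω.foldl (fun b i => t.st i b) s) = s := by
          intro ω
          induction ω with
          | nil => intro s; rfl
          | cons i ω ih =>
            intro s
            rw [List.foldl_cons, List.reverse_cons, List.foldl_append, ih, List.foldl_cons, List.foldl_nil,
              Tab.st_st cs h t]
        conv_rhs => rw [← e2]
        rw [show t.cpath (List.foldl (fun b i => t.st i b) (t.crep c) (t.cpath (t.sw cs h y))) =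
          t.cpath (t.sw cs h y) by rw [e2]]
        exact (key _ _).symm
      refine ⟨⟨cs.wordProd (t.cpath (t.sw cs h y)).reverse * cs.wordProd (t.cpath s),
        mul_mem (wordProd_mem_WJ cs fun i hi => t.cpath_ne (t.sw cs h y) i (List.mem_reverse.1 hi))
          (wordProd_mem_WJ cs fun i hi => t.cpath_ne s i hi)⟩, ?_⟩
      show t.sw cs h (y * (cs.wordProd (t.cpath (t.sw cs h y)).reverse * cs.wordProd (t.cpath s))) = s
      rw [← mul_assoc, Tab.sw_wordProd, Tab.sw_wordProd, ← e3]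
      exact e1
    rw [hn0]
    refine Finset.card_bij (fun p _ => p * p0⁻¹) (fun p hp => ?_) (fun p _ p' _ e => mul_right_cancel e)
      fun p hp => ⟨p * p0, ?_, by group⟩
    · rw [Finset.mem_filter] at hp ⊢
      refine ⟨Finset.mem_univ _, ?_⟩
      have h1 := t.mem_WJ_of_sw cs h (hp.2.trans hp0.symm)
      have h2 := Tab.sw_mul_left cs h t h1 (y * (p : W) * (p0 : W)⁻¹)
      have e4 : y * (p0 : W) * (y * (p : W))⁻¹ * (y * (p : W) * (p0 : W)⁻¹) = y := by group
      rw [e4] at h2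
      show t.sw cs h (y * ((p * p0⁻¹ : WJ cs {i | i ≠ j}) : W)) = t.sw cs h y
      rw [h2]
      push_cast
      rw [mul_assoc]
    · rw [Finset.mem_filter] at hp ⊢
      refine ⟨Finset.mem_univ _, ?_⟩
      have h1 := t.mem_WJ_of_sw cs h hp.2
      have h2 := Tab.sw_mul_left cs h t h1 (y * (p : W) * (p0 : W))
      have e4 : y * (y * (p : W))⁻¹ * (y * (p : W) * (p0 : W)) = y * p0 := by group
      rw [e4] at h2
      show t.sw cs h (y * ((p * p0 : WJ cs {i | i ≠ j}) : W)) = s
      rw [← hp0, h2]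
      push_cast
      rw [mul_assoc]
  have hsum : ∀ ψ : Fin N → ℂ, ∑ p : WJ cs {i | i ≠ j}, ψ (t.sw cs h (y * p)) =
      n0 * ∑ s ∈ Finset.univ.filter (fun s => t.cls s = c), ψ s := by
    intro ψ
    rw [← Finset.sum_fiberwise_of_maps_to hmaps, Finset.mul_sum]
    refine Finset.sum_congr rfl fun s hs => ?_
    have h1 : ∀ p ∈ Finset.univ.filter (fun p : WJ cs {i | i ≠ j} => t.sw cs h (y * (p : W)) = s),
        ψ (t.sw cs h (y * (p : W))) = ψ s := fun p hp => by rw [(Finset.mem_filter.1 hp).2]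
    rw [Finset.sum_congr rfl h1, Finset.sum_const, hfib s hs, nsmul_eq_mul]
  have h1 := hsum fun _ => 1
  rw [Finset.sum_const, Finset.sum_const, Finset.card_univ, nsmul_eq_mul, nsmul_eq_mul, mul_one, mul_one] at h1
  rw [hsum ψ, Nat.card_eq_fintype_card, h1]
  show (sz t c : ℂ) * _ = (n0 : ℂ) * (sz t c : ℂ) * _
  ring

include hF hf in
/-- (2) -/
theorem keq (ω : List I) (c : Fin m) :
    ∑ s ∈ Finset.univ.filter (fun s => t.cls s = c), f (zz t ω s) = sz t c * (f (zz t ω t.o) * f (t.crep c)) := by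
  classical
  by_cases hc : ∃ s, t.cls s = c
  · obtain ⟨s0, hs0⟩ := hc
    obtain ⟨y, hy⟩ := t.exists_sw cs h (t.crep c)
    have hyc : t.cls (t.sw cs h y) = c := by rw [hy, ← hs0, cls_crep]
    have h1 := sum_orbit (cs := cs) (h := h) hyc (fun s => f (zz t ω s))
    have h2 := hF.mul (cs.wordProd ω) y
    have h3 : ∀ p : WJ cs {i | i ≠ j}, F (y * p * cs.wordProd ω) = f (zz t ω (t.sw cs h (y * p))) := fun p => by
      rw [← hf, Tab.sw_wordProd]
      rfl
    have h4 : F (cs.wordProd ω) = f (zz t ω t.o) := by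
      rw [← hf, ← one_mul (cs.wordProd ω), Tab.sw_wordProd, Tab.sw_one]
      rfl
    have h5 : F y = f (t.crep c) := by rw [← hy, hf]
    rw [Finset.sum_congr rfl fun p _ => h3 p, h4, h5] at h2
    rw [h2] at h1
    have hP0 : (Nat.card (WJ cs {i | i ≠ j}) : ℂ) ≠ 0 := Nat.cast_ne_zero.2 Nat.card_pos.ne'
    refine mul_left_cancel₀ hP0 ?_
    rw [← h1]
    ring
  · have h1 : Finset.univ.filter (fun s => t.cls s = c) = ∅ :=
      Finset.filter_eq_empty_iff.2 fun s _ h2 => hc ⟨s, h2⟩
    have h2 : sz t c = 0 := by rw [sz, h1, Finset.card_empty]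
    rw [h1, h2, Finset.sum_empty, Nat.cast_zero, zero_mul]

include hF hf in
/-- (3) -/
theorem keq' (ω : List I) (c : Fin m) :
    ∑ x, ((Finset.univ.filter fun s => t.cls s = c ∧ t.cls (zz t ω s) = x).card : ℂ) * f (t.crep x) =
      sz t c * f (t.crep (t.cls (zz t ω t.o))) * f (t.crep c) := by
  classical
  rw [mul_assoc, ← f_cls hF hf, ← keq hF hf ω c]
  rw [← Finset.sum_fiberwise (Finset.univ.filter fun s => t.cls s = c) (fun s => t.cls (zz t ω s))]
  refine Finset.sum_congr rfl fun x _ => ?_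
  have h1 : ∀ s ∈ (Finset.univ.filter fun s => t.cls s = c).filter (fun s => t.cls (zz t ω s) = x),
      f (zz t ω s) = f (t.crep x) := fun s hs => by
    rw [f_cls hF hf, (Finset.mem_filter.1 hs).2]
  rw [Finset.sum_congr rfl h1, Finset.sum_const, nsmul_eq_mul, Finset.filter_filter]

include hF hf in
/-- sums over the group of functions of the value -/
theorem sum_val (g : ℂ → ℂ) : ∑ w, g (F w) =
    Nat.card (WJ cs {i | i ≠ j}) * ∑ c, (sz t c : ℂ) * g (f (t.crep c)) := by
  classical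
  have h1 := sum_sw (cs := cs) (h := h) (t := t) (fun s => g (f s))
  rw [Finset.sum_congr rfl fun w _ => by rw [hf w]] at h1
  rw [h1, ← sum_cls (t := t) (fun s => g (f s))]
  congr 1
  refine Finset.sum_congr rfl fun c _ => ?_
  have h2 : ∀ s ∈ Finset.univ.filter (fun s => t.cls s = c), g (f s) = g (f (t.crep c)) := fun s hs => by
    rw [f_cls hF hf, (Finset.mem_filter.1 hs).2]
  rw [Finset.sum_congr rfl h2, Finset.sum_const, nsmul_eq_mul]
  rfl

include hF hf in
/-- (4) the degree -/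
theorem norm (ha : ∀ c, conj (f (t.crep c)) = f (t.crep c)) (hinv : ∀ g, F g⁻¹ = conj (F g)) :
    φ 1 * ∑ c, (sz t c : ℂ) * f (t.crep c) ^ 2 = N := by
  have hP0 : (Nat.card (WJ cs {i | i ≠ j}) : ℂ) ≠ 0 := Nat.cast_ne_zero.2 Nat.card_pos.ne'
  have h1 := hF.nrm
  have hreal : ∀ w, conj (F w) = F w := fun w => by
    rw [← hf, f_cls hF hf]
    exact ha _
  have h2 : ∀ w, F w * F w⁻¹ = (fun z : ℂ => z ^ 2) (F w) := fun w => by
    rw [hinv, hreal]
    exact (sq _).symm
  rw [Finset.sum_congr rfl fun w _ => h2 w, sum_val hF hf (fun z : ℂ => z ^ 2), card_eq (cs := cs) h t] at h1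
  refine mul_left_cancel₀ hP0 ?_
  linear_combination h1

omit hF hf in
/-- (5) the values on the classes determine the character -/
theorem inj {φ F φ' F' : W → ℂ} (hF : Sph (WJ cs {i | i ≠ j}) φ F) (hF' : Sph (WJ cs {i | i ≠ j}) φ' F')
    {f f' : Fin N → ℂ} (hf : ∀ w, f (t.sw cs h w) = F w) (hf' : ∀ w, f' (t.sw cs h w) = F' w)
    (ha : ∀ c, f (t.crep c) = f' (t.crep c)) : φ = φ' := by
  have hW0 : (Nat.card W : ℂ) ≠ 0 := Nat.cast_ne_zero.2 Nat.card_pos.ne'
  have hFF : F = F' := by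
    funext w
    rw [← hf, ← hf', f_cls hF hf, f_cls hF' hf', ha]
  subst hFF
  have h1 := hF.nrm
  have h2 := hF'.nrm
  have hS : ∑ g, F g * F g⁻¹ ≠ 0 := by
    intro h0
    rw [h0, mul_zero] at h1
    exact hW0 h1.symm
  have h3 : φ 1 = φ' 1 := mul_right_cancel₀ hS (h1.trans h2.symm)
  funext g
  have h4 := hF.conj g
  have h5 := hF'.conj g
  rw [h3, h5] at h4
  exact (mul_left_cancel₀ hW0 h4).symm

include hF hf in
/-- (6) the sum of the values -/
theorem sum_univ : ∑ w, φ w = φ 1 * Nat.card (WJ cs {i | i ≠ j}) * ∑ c, (sz t c : ℂ) * f (t.crep c) := by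
  have hW0 : (Nat.card W : ℂ) ≠ 0 := Nat.cast_ne_zero.2 Nat.card_pos.ne'
  have h1 : ∑ g, φ 1 * ∑ y, F (y * g * y⁻¹) = ∑ g, (Nat.card W : ℂ) * φ g :=
    Finset.sum_congr rfl fun g _ => hF.conj g
  rw [← Finset.mul_sum, ← Finset.mul_sum, Finset.sum_comm] at h1
  have h2 : ∀ y : W, ∑ g, F (y * g * y⁻¹) = ∑ g, F g := fun y =>
    Fintype.sum_equiv (MulAut.conj y).toEquiv _ _ fun g => rfl
  rw [Finset.sum_congr rfl fun y _ => h2 y, Finset.sum_const, Finset.card_univ, nsmul_eq_mul] at h1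
  have h3 := sum_val hF hf (fun z => z)
  have h4 : ∑ w, F w = ∑ w, (fun z : ℂ => z) (F w) := rfl
  rw [h4, h3] at h1
  refine mul_left_cancel₀ hW0 ?_
  rw [← h1, Nat.card_eq_fintype_card (α := W)]
  ring

end Cfsg.Agent.H116.LB
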