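import Cfsg.Agent.H348.LB.Dom

/-!
# Spherical functions for a transitive action on states (helper116, for S4879)

The statements of `H348/LB/Tr` and `H116/LB/KEq` for a general transitive right action of `W` on `N` states.

* `Act cs N` : the action (`sw w` = the state of `w`); `Act.P` : the stabilizer of the state `o`; `zz a ω s`;
* `Cls a m` : the orbits of `P` on the states (generators of `P`, classes, representatives, paths);
* `f_cls`, `sum_orbit`, `keq`, `keq'`, `norm`, `inj`, `sum_univ`;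
* `Orb a J η r ε` : the orbits of `W_J` with signs; `trace`.
-/

set_option autoImplicit false
set_option linter.unusedSectionVars false

namespace Cfsg.Agent.H116.LB.KG

open Cfsg CoxeterSystem Cfsg.Agent.ChevalleyStructure.CoxeterGeom Cfsg.Agent.Tits.Roots
  Cfsg.Agent.Tits.Core Cfsg.Agent.Tits.Exchange
open Cfsg.Agent.H348.LB (Sph sg sg_mul sg_one sg_simple sg_wordProd sg_sq sg_inv)
open scoped ComplexConjugate

variable {I W : Type*} [Fintype I] [DecidableEq I] [Group W] {M : CoxeterMatrix I}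
  {cs : CoxeterSystem M W} {N m : ℕ}

/-- a transitive right action on the states -/
structure Act (cs : CoxeterSystem M W) (N : ℕ) where
  st : I → Fin N → Fin N
  o : Fin N
  sw : W → Fin N
  sw_one : sw 1 = o
  sw_mul_simple : ∀ w i, sw (w * cs.simple i) = st i (sw w)
  surj : ∀ s, ∃ w, sw w = s

/-- the action of a word on the states -/
def zz (a : Act cs N) (ω : List I) (s : Fin N) : Fin N := ω.foldl (fun b i => a.st i b) s

namespace Act

variable (a : Act cs N)

theorem sw_wordProd (w : W) (ω : List I) : a.sw (w * cs.wordProd ω) = zz a ω (a.sw w) := by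
  induction ω generalizing w with
  | nil => rw [wordProd_nil, mul_one]; rfl
  | cons i ω ih =>
    rw [wordProd_cons, ← mul_assoc, ih, sw_mul_simple]
    rfl

theorem sw_congr {w w' : W} (h : a.sw w = a.sw w') (x : W) : a.sw (w * x) = a.sw (w' * x) := by
  obtain ⟨ω, rfl⟩ := cs.wordProd_surjective x
  rw [sw_wordProd, sw_wordProd, h]

/-- the stabilizer of the state `o` -/
def P : Subgroup W where
  carrier := {w | a.sw w = a.o}
  one_mem' := a.sw_one
  mul_mem' := fun {x y} hx hy => by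
    show a.sw (x * y) = a.o
    rw [a.sw_congr (w' := 1) ((show a.sw x = a.o from hx).trans a.sw_one.symm) y, one_mul]
    exact hy
  inv_mem' := fun {x} hx => by
    show a.sw x⁻¹ = a.o
    have h1 := a.sw_congr (w' := 1) ((show a.sw x = a.o from hx).trans a.sw_one.symm) x⁻¹
    rw [mul_inv_cancel, one_mul, a.sw_one] at h1
    exact h1.symm

theorem mem_P {w : W} : w ∈ a.P ↔ a.sw w = a.o := Iff.rfl

theorem sw_mul_left {p : W} (hp : p ∈ a.P) (w : W) : a.sw (p * w) = a.sw w := by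
  rw [a.sw_congr (w' := 1) ((a.mem_P.1 hp).trans a.sw_one.symm) w, one_mul]

theorem mem_P_of_sw {w w' : W} (h : a.sw w = a.sw w') : w' * w⁻¹ ∈ a.P := by
  rw [mem_P, ← a.sw_congr h, mul_inv_cancel, a.sw_one]

theorem wordProd_mem {ω : List I} (h : zz a ω a.o = a.o) : cs.wordProd ω ∈ a.P := by
  rw [mem_P, ← one_mul (cs.wordProd ω), sw_wordProd, a.sw_one, h]

end Act

theorem zz_append (a : Act cs N) (ω ω' : List I) (s : Fin N) : zz a (ω ++ ω') s = zz a ω' (zz a ω s) :=
  List.foldl_append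

theorem zz_reverse (a : Act cs N) (ω : List I) (s : Fin N) : zz a ω.reverse (zz a ω s) = s := by
  obtain ⟨w, rfl⟩ := a.surj s
  rw [← a.sw_wordProd, ← a.sw_wordProd, wordProd_reverse, mul_inv_cancel_right]

/-- the orbits of `P` on the states -/
structure Cls (a : Act cs N) (m : ℕ) where
  gens : List (List I)
  gen_o : ∀ g ∈ gens, zz a g a.o = a.o
  gen_closure : ∀ p ∈ a.P, p ∈ Subgroup.closure {x | ∃ g ∈ gens, cs.wordProd g = x}
  cls : Fin N → Fin m
  cls_gen : ∀ g ∈ gens, ∀ s, cls (zz a g s) = cls s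
  crep : Fin m → Fin N
  path : Fin N → List (List I)
  path_mem : ∀ s, ∀ g ∈ path s, g ∈ gens
  path_spec : ∀ s, (path s).foldl (fun b g => zz a g b) (crep (cls s)) = s

variable {a : Act cs N} (C : Cls a m)

/-- the number of states of a class -/
def Cls.sz (c : Fin m) : ℕ := (Finset.univ.filter fun s => C.cls s = c).card

theorem Cls.cls_sw_mul (w : W) {p : W} (hp : p ∈ a.P) : C.cls (a.sw (w * p)) = C.cls (a.sw w) := by
  have h1 := C.gen_closure p hp
  clear hp
  induction h1 using Subgroup.closure_induction generalizing w with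
  | mem x hx =>
    obtain ⟨g, hg, rfl⟩ := hx
    rw [a.sw_wordProd, C.cls_gen g hg]
  | one => rw [mul_one]
  | mul x y _ _ hx hy => rw [← mul_assoc, hy, hx]
  | inv x _ hx =>
    have h2 := hx (w * x⁻¹)
    rw [inv_mul_cancel_right] at h2
    exact h2.symm

theorem Cls.exists_path (s : Fin N) : ∃ p ∈ a.P, ∀ w, a.sw w = C.crep (C.cls s) → a.sw (w * p) = s := by
  have key : ∀ (l : List (List I)) (_ : ∀ g ∈ l, g ∈ C.gens) (s : Fin N), ∃ p ∈ a.P, ∀ w, a.sw w = s →
      a.sw (w * p) = l.foldl (fun b g => zz a g b) s := by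
    intro l
    induction l with
    | nil => intro _ s; exact ⟨1, one_mem _, fun w hw => by rw [mul_one, hw]; rfl⟩
    | cons g l ih =>
      intro hl s
      obtain ⟨p, hp, h1⟩ := ih (fun k hk => hl k (List.mem_cons_of_mem _ hk)) (zz a g s)
      refine ⟨cs.wordProd g * p, mul_mem (a.wordProd_mem (C.gen_o g (hl g List.mem_cons_self))) hp, fun w hw => ?_⟩
      rw [← mul_assoc, List.foldl_cons]
      exact h1 _ (by rw [a.sw_wordProd, hw])
  obtain ⟨p, hp, h1⟩ := key (C.path s) (C.path_mem s) (C.crep (C.cls s))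
  exact ⟨p, hp, fun w hw => by rw [h1 w hw, C.path_spec]⟩

theorem Cls.cls_crep (s : Fin N) : C.cls (C.crep (C.cls s)) = C.cls s := by
  obtain ⟨p, hp, h1⟩ := C.exists_path s
  obtain ⟨w, hw⟩ := a.surj (C.crep (C.cls s))
  have h2 := C.cls_sw_mul w hp
  rw [h1 w hw, hw] at h2
  exact h2.symm

variable [Fintype W]

/-- fibres of the state map -/
theorem sum_sw [Fintype a.P] (ψ : Fin N → ℂ) : ∑ y : W, ψ (a.sw y) = Nat.card a.P * ∑ s, ψ s := by
  classical
  rw [← Finset.sum_fiberwise Finset.univ (fun y : W => a.sw y), Finset.mul_sum]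
  refine Finset.sum_congr rfl fun s _ => ?_
  obtain ⟨w, hw⟩ := a.surj s
  have h1 : ∀ y ∈ Finset.univ.filter (fun y : W => a.sw y = s), ψ (a.sw y) = ψ s := fun y hy => by
    rw [(Finset.mem_filter.1 hy).2]
  rw [Finset.sum_congr rfl h1, Finset.sum_const, nsmul_eq_mul]
  congr 1
  rw [Nat.cast_inj, Nat.card_eq_fintype_card]
  have h2 : Finset.univ.filter (fun y : W => a.sw y = s) = Finset.univ.image (fun p : a.P => (p : W) * w) := by
    ext y
    rw [Finset.mem_filter, Finset.mem_image]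
    constructor
    · rintro ⟨-, h3⟩
      exact ⟨⟨y * w⁻¹, a.mem_P_of_sw (by rw [hw, h3])⟩, Finset.mem_univ _, by
        show y * w⁻¹ * w = y
        group⟩
    · rintro ⟨p, -, rfl⟩
      exact ⟨Finset.mem_univ _, by rw [a.sw_mul_left p.2, hw]⟩
  rw [h2, Finset.card_image_of_injective _ (fun a b hab => Subtype.ext (mul_right_cancel hab)), Finset.card_univ]

theorem card_eq (a : Act cs N) [Fintype a.P] : (Nat.card W : ℂ) = Nat.card a.P * N := by
  have h1 := sum_sw (a := a) (fun _ => 1)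
  rw [Finset.sum_const, Finset.sum_const, Finset.card_univ, Finset.card_univ, Fintype.card_fin] at h1
  rw [Nat.card_eq_fintype_card (α := W)]
  simpa using h1

variable [Fintype a.P] {φ F : W → ℂ} (hF : Sph a.P φ F)

include hF in
theorem exists_f : ∃ f : Fin N → ℂ, ∀ w, f (a.sw w) = F w := by
  classical
  choose g hg using fun s => a.surj s
  refine ⟨fun s => F (g s), fun w => ?_⟩
  have h1 := a.mem_P_of_sw (hg (a.sw w)).symm
  have h2 := hF.left _ h1 w
  rw [inv_mul_cancel_right] at h2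
  exact h2

variable {f : Fin N → ℂ} (hf : ∀ w, f (a.sw w) = F w)

include hF hf in
theorem f_o : f a.o = 1 := by
  rw [← a.sw_one, hf, hF.one]

include hF hf in
theorem f_cls (s : Fin N) : f s = f (C.crep (C.cls s)) := by
  obtain ⟨p, hp, h1⟩ := C.exists_path s
  obtain ⟨w, hw⟩ := a.surj (C.crep (C.cls s))
  rw [← hw, ← h1 w hw, hf, hf]
  exact hF.right p hp w

omit [Fintype W] in
/-- the average over an orbit -/
theorem sum_orbit {y : W} {c : Fin m} (hy : C.cls (a.sw y) = c) (ψ : Fin N → ℂ) :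
    (C.sz c : ℂ) * ∑ p : a.P, ψ (a.sw (y * p)) =
      Nat.card a.P * ∑ s ∈ Finset.univ.filter (fun s => C.cls s = c), ψ s := by
  classical
  set n0 := (Finset.univ.filter fun p : a.P => a.sw (y * p) = a.sw y).card with hn0
  have hmaps : ∀ p ∈ (Finset.univ : Finset a.P), a.sw (y * p) ∈ Finset.univ.filter (fun s => C.cls s = c) := fun p _ => by
    rw [Finset.mem_filter]
    exact ⟨Finset.mem_univ _, (C.cls_sw_mul y p.2).trans hy⟩
  have hfib : ∀ s ∈ Finset.univ.filter (fun s => C.cls s = c),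
      (Finset.univ.filter fun p : a.P => a.sw (y * p) = s).card = n0 := by
    intro s hs
    have hs' : C.cls s = c := (Finset.mem_filter.1 hs).2
    obtain ⟨p0, hp0⟩ : ∃ p0 : a.P, a.sw (y * p0) = s := by
      obtain ⟨p, hp, h1⟩ := C.exists_path s
      obtain ⟨p', hp', h2⟩ := C.exists_path (a.sw y)
      obtain ⟨w, hw⟩ := a.surj (C.crep c)
      have h3 : a.sw (w * p') = a.sw y := h2 w (by rw [hw, hy])
      have h4 : a.sw (w * p) = s := h1 w (by rw [hw, hs'])
      refine ⟨⟨p'⁻¹ * p, mul_mem (inv_mem hp') hp⟩, ?_⟩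
      show a.sw (y * (p'⁻¹ * p)) = s
      rw [← a.sw_congr h3, ← h4]
      congr 1
      group
    rw [hn0]
    refine Finset.card_bij (fun p _ => p * p0⁻¹) (fun p hp => ?_) (fun p _ p' _ e => mul_right_cancel e)
      fun p hp => ⟨p * p0, ?_, by group⟩
    · rw [Finset.mem_filter] at hp ⊢
      refine ⟨Finset.mem_univ _, ?_⟩
      show a.sw (y * ((p * p0⁻¹ : a.P) : W)) = a.sw y
      have h2 := a.sw_congr (hp.2.trans hp0.symm) (p0 : W)⁻¹
      rw [mul_inv_cancel_right, mul_assoc] at h2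
      exact h2
    · rw [Finset.mem_filter] at hp ⊢
      refine ⟨Finset.mem_univ _, ?_⟩
      show a.sw (y * ((p * p0 : a.P) : W)) = s
      have h2 := a.sw_congr hp.2 (p0 : W)
      rw [mul_assoc, hp0] at h2
      exact h2
  have hsum : ∀ ψ : Fin N → ℂ, ∑ p : a.P, ψ (a.sw (y * p)) =
      n0 * ∑ s ∈ Finset.univ.filter (fun s => C.cls s = c), ψ s := by
    intro ψ
    rw [← Finset.sum_fiberwise_of_maps_to hmaps, Finset.mul_sum]
    refine Finset.sum_congr rfl fun s hs => ?_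
    have h1 : ∀ p ∈ Finset.univ.filter (fun p : a.P => a.sw (y * (p : W)) = s),
        ψ (a.sw (y * (p : W))) = ψ s := fun p hp => by rw [(Finset.mem_filter.1 hp).2]
    rw [Finset.sum_congr rfl h1, Finset.sum_const, hfib s hs, nsmul_eq_mul]
  have h1 := hsum fun _ => 1
  rw [Finset.sum_const, Finset.sum_const, Finset.card_univ, nsmul_eq_mul, nsmul_eq_mul, mul_one, mul_one] at h1
  rw [hsum ψ, Nat.card_eq_fintype_card, h1]
  show (C.sz c : ℂ) * _ = (n0 : ℂ) * (C.sz c : ℂ) * _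
  ring

include hF hf in
theorem keq (ω : List I) (c : Fin m) :
    ∑ s ∈ Finset.univ.filter (fun s => C.cls s = c), f (zz a ω s) = C.sz c * (f (zz a ω a.o) * f (C.crep c)) := by
  classical
  by_cases hc : ∃ s, C.cls s = c
  · obtain ⟨s0, hs0⟩ := hc
    obtain ⟨y, hy⟩ := a.surj (C.crep c)
    have hyc : C.cls (a.sw y) = c := by rw [hy, ← hs0, C.cls_crep]
    have h1 := sum_orbit C hyc (fun s => f (zz a ω s))
    have h2 := hF.mul (cs.wordProd ω) y
    have h3 : ∀ p : a.P, F (y * p * cs.wordProd ω) = f (zz a ω (a.sw (y * p))) := fun p => by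
      rw [← hf, a.sw_wordProd]
    have h4 : F (cs.wordProd ω) = f (zz a ω a.o) := by
      rw [← hf, ← one_mul (cs.wordProd ω), a.sw_wordProd, a.sw_one]
    have h5 : F y = f (C.crep c) := by rw [← hy, hf]
    rw [Finset.sum_congr rfl fun p _ => h3 p, h4, h5] at h2
    rw [h2] at h1
    have hP0 : (Nat.card a.P : ℂ) ≠ 0 := Nat.cast_ne_zero.2 Nat.card_pos.ne'
    refine mul_left_cancel₀ hP0 ?_
    rw [← h1]
    ring
  · have h1 : Finset.univ.filter (fun s => C.cls s = c) = ∅ :=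
      Finset.filter_eq_empty_iff.2 fun s _ h2 => hc ⟨s, h2⟩
    have h2 : C.sz c = 0 := by rw [Cls.sz, h1, Finset.card_empty]
    rw [h1, h2, Finset.sum_empty, Nat.cast_zero, zero_mul]

include hF hf in
theorem keq' (ω : List I) (c : Fin m) :
    ∑ x, ((Finset.univ.filter fun s => C.cls s = c ∧ C.cls (zz a ω s) = x).card : ℂ) * f (C.crep x) =
      C.sz c * f (C.crep (C.cls (zz a ω a.o))) * f (C.crep c) := by
  classical
  rw [mul_assoc, ← f_cls C hF hf, ← keq C hF hf ω c]
  rw [← Finset.sum_fiberwise (Finset.univ.filter fun s => C.cls s = c) (fun s => C.cls (zz a ω s))]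
  refine Finset.sum_congr rfl fun x _ => ?_
  have h1 : ∀ s ∈ (Finset.univ.filter fun s => C.cls s = c).filter (fun s => C.cls (zz a ω s) = x),
      f (zz a ω s) = f (C.crep x) := fun s hs => by
    rw [f_cls C hF hf, (Finset.mem_filter.1 hs).2]
  rw [Finset.sum_congr rfl h1, Finset.sum_const, nsmul_eq_mul, Finset.filter_filter]

include hF hf in
theorem sum_val (g : ℂ → ℂ) : ∑ w, g (F w) = Nat.card a.P * ∑ c, (C.sz c : ℂ) * g (f (C.crep c)) := by
  classical
  have h1 := sum_sw (a := a) (fun s => g (f s))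
  rw [Finset.sum_congr rfl fun w _ => by rw [hf w]] at h1
  rw [h1, ← Finset.sum_fiberwise Finset.univ C.cls (fun s => g (f s))]
  congr 1
  refine Finset.sum_congr rfl fun c _ => ?_
  have h2 : ∀ s ∈ Finset.univ.filter (fun s => C.cls s = c), g (f s) = g (f (C.crep c)) := fun s hs => by
    rw [f_cls C hF hf, (Finset.mem_filter.1 hs).2]
  rw [Finset.sum_congr rfl h2, Finset.sum_const, nsmul_eq_mul]
  rfl

include hF hf in
/-- the degree -/
theorem norm (ha : ∀ c, conj (f (C.crep c)) = f (C.crep c)) (hinv : ∀ g, F g⁻¹ = conj (F g)) :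
    φ 1 * ∑ c, (C.sz c : ℂ) * f (C.crep c) ^ 2 = N := by
  have hP0 : (Nat.card a.P : ℂ) ≠ 0 := Nat.cast_ne_zero.2 Nat.card_pos.ne'
  have h1 := hF.nrm
  have hreal : ∀ w, conj (F w) = F w := fun w => by
    rw [← hf, f_cls C hF hf]
    exact ha _
  have h2 : ∀ w, F w * F w⁻¹ = (fun z : ℂ => z ^ 2) (F w) := fun w => by
    rw [hinv, hreal]
    exact (sq _).symm
  rw [Finset.sum_congr rfl fun w _ => h2 w, sum_val C hF hf (fun z : ℂ => z ^ 2), card_eq a] at h1
  refine mul_left_cancel₀ hP0 ?_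
  linear_combination h1

omit hF hf in
/-- the values on the classes determine the character -/
theorem inj {φ F φ' F' : W → ℂ} (hF : Sph a.P φ F) (hF' : Sph a.P φ' F')
    {f f' : Fin N → ℂ} (hf : ∀ w, f (a.sw w) = F w) (hf' : ∀ w, f' (a.sw w) = F' w)
    (ha : ∀ c, f (C.crep c) = f' (C.crep c)) : φ = φ' := by
  have hW0 : (Nat.card W : ℂ) ≠ 0 := Nat.cast_ne_zero.2 Nat.card_pos.ne'
  have hFF : F = F' := by
    funext w
    rw [← hf, ← hf', f_cls C hF hf, f_cls C hF' hf', ha]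
  subst hFF
  have h1 := hF.nrm
  have h2 := hF'.nrm
  have hS : ∑ g, F g * F g⁻¹ ≠ 0 := by
    intro h0
    rw [h0, mul_zero] at h1
    exact hW0 h1.symm
  have h3 : φ 1 = φ' 1 := mul_right_cancel₀ hS (h1.trans h2.symm)
  funext g
  have h4 := hF.conj g
  have h5 := hF'.conj g
  rw [h3, h5] at h4
  exact (mul_left_cancel₀ hW0 h4).symm

include hF hf in
/-- the sum of the values -/
theorem sum_univ : ∑ w, φ w = φ 1 * Nat.card a.P * ∑ c, (C.sz c : ℂ) * f (C.crep c) := by
  have hW0 : (Nat.card W : ℂ) ≠ 0 := Nat.cast_ne_zero.2 Nat.card_pos.ne'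
  have h1 : ∑ g, φ 1 * ∑ y, F (y * g * y⁻¹) = ∑ g, (Nat.card W : ℂ) * φ g :=
    Finset.sum_congr rfl fun g _ => hF.conj g
  rw [← Finset.mul_sum, ← Finset.mul_sum, Finset.sum_comm] at h1
  have h2 : ∀ y : W, ∑ g, F (y * g * y⁻¹) = ∑ g, F g := fun y =>
    Fintype.sum_equiv (MulAut.conj y).toEquiv _ _ fun g => rfl
  rw [Finset.sum_congr rfl fun y _ => h2 y, Finset.sum_const, Finset.card_univ, nsmul_eq_mul] at h1
  have h3 := sum_val C hF hf (fun z => z)
  have h4 : ∑ w, F w = ∑ w, (fun z : ℂ => z) (F w) := rfl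
  rw [h4, h3] at h1
  refine mul_left_cancel₀ hW0 ?_
  rw [← h1, Nat.card_eq_fintype_card (α := W)]
  ring

/-! ### the trace formula -/

/-- the orbits of `W_J` on the states with signs -/
structure Orb (a : Act cs N) (J : Set I) (η : ℤ) (r : Fin N → Fin N) (ε : Fin N → ℤ) : Prop where
  rst : ∀ i ∈ J, ∀ s, r (a.st i s) = r s
  est : ∀ i ∈ J, ∀ s, ε (a.st i s) = η * ε s
  mem : ∀ s, ∃ ω : List I, (∀ i ∈ ω, i ∈ J) ∧ zz a ω (r s) = s
  e1 : ∀ s, ε (r s) = 1 ∨ (ε (r s) = 0 ∧ ∃ ω : List I, (∀ i ∈ ω, i ∈ J) ∧ η ^ ω.length = -1 ∧ zz a ω (r s) = r s)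

section Orb

variable {J : Set I} {η : ℤ} {r : Fin N → Fin N} {ε : Fin N → ℤ}

omit [Fintype W] [Fintype a.P] in
theorem Orb.r_zz (O : Orb a J η r ε) : ∀ {ω : List I}, (∀ i ∈ ω, i ∈ J) → ∀ s, r (zz a ω s) = r s := by
  intro ω
  induction ω with
  | nil => intro _ s; rfl
  | cons i ω ih =>
    intro hω s
    show r (zz a ω (a.st i s)) = r s
    rw [ih (fun k hk => hω k (List.mem_cons_of_mem _ hk)), O.rst i (hω i List.mem_cons_self)]

omit [Fintype W] [Fintype a.P] in
theorem Orb.e_zz (O : Orb a J η r ε) : ∀ {ω : List I}, (∀ i ∈ ω, i ∈ J) → ∀ s, ε (zz a ω s) = η ^ ω.length * ε s := by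
  intro ω
  induction ω with
  | nil => intro _ s; simp [zz]
  | cons i ω ih =>
    intro hω s
    show ε (zz a ω (a.st i s)) = _
    rw [ih (fun k hk => hω k (List.mem_cons_of_mem _ hk)), O.est i (hω i List.mem_cons_self), List.length_cons,
      pow_succ]
    ring

omit [Fintype W] [Fintype a.P] in
theorem Orb.r_eq (O : Orb a J η r ε) (y : W) {u : W} (hu : u ∈ WJ cs J) : r (a.sw (y * u)) = r (a.sw y) := by
  obtain ⟨ω, hω, rfl⟩ := exists_word_of_mem_WJ cs hu
  rw [a.sw_wordProd, O.r_zz fun i hi => hω i hi]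

omit [Fintype W] [Fintype a.P] in
theorem Orb.eps_mul (O : Orb a J η r ε) (hη : η = 1 ∨ η = -1) (y : W) {u : W} (hu : u ∈ WJ cs J) :
    ε (a.sw (y * u)) = sg cs η u * ε (a.sw y) := by
  obtain ⟨ω, hω, rfl⟩ := exists_word_of_mem_WJ cs hu
  rw [a.sw_wordProd, O.e_zz fun i hi => hω i hi, sg_wordProd cs hη]

omit [Fintype W] [Fintype a.P] in
theorem Orb.lift (O : Orb a J η r ε) (hη : η = 1 ∨ η = -1) (y : W) :
    ∃ v ∈ WJ cs J, a.sw (y * v) = r (a.sw y) ∧ ε (a.sw y) = sg cs η v * ε (r (a.sw y)) := by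
  obtain ⟨ω, hω, h1⟩ := O.mem (a.sw y)
  have hv : (cs.wordProd ω)⁻¹ ∈ WJ cs J := inv_mem (wordProd_mem_WJ cs hω)
  have h2 : a.sw (y * (cs.wordProd ω)⁻¹) = r (a.sw y) := by
    rw [← wordProd_reverse, a.sw_wordProd]
    conv_lhs => rw [← h1]
    exact zz_reverse a ω _
  refine ⟨_, hv, h2, ?_⟩
  rw [← h2, O.eps_mul hη y hv, ← mul_assoc, sg_sq cs hη, one_mul]

include hF hf in
/-- the kernel of a pair of states -/
theorem kern {y y' : W} {ω : List I} (h1 : zz a ω (a.sw y) = a.o) : F (y' * y⁻¹) = f (zz a ω (a.sw y')) := by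
  rw [← a.sw_wordProd, hf]
  rw [← a.sw_wordProd] at h1
  have h2 : y * cs.wordProd ω ∈ a.P := h1
  have h3 : y' * cs.wordProd ω = y' * y⁻¹ * (y * cs.wordProd ω) := by group
  rw [h3, hF.right _ h2]

include hF hf in
/-- **The trace formula.** -/
theorem trace [Fintype (WJ cs J)] (O : Orb a J η r ε) (hη : η = 1 ∨ η = -1) {v : Fin N → ℂ}
    (hv : ∀ s, ∃ ω : List I, zz a ω (r s) = a.o ∧ f (zz a ω s) = v s) :
    N * ∑ u : WJ cs J, (sg cs η (u : W) : ℂ) * φ u = Nat.card (WJ cs J) * (φ 1 * ∑ s, (ε s : ℂ) * v s) := by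
  classical
  have hW0 : (Nat.card W : ℂ) ≠ 0 := Nat.cast_ne_zero.2 Nat.card_pos.ne'
  have hP0 : (Nat.card a.P : ℂ) ≠ 0 := Nat.cast_ne_zero.2 Nat.card_pos.ne'
  set S : W → ℂ := fun y => ∑ u : WJ cs J, (sg cs η (u : W) : ℂ) * F (y * u * y⁻¹) with hS
  have hSt : ∀ y, ∀ v : WJ cs J, S (y * v) = S y := by
    intro y v
    refine Fintype.sum_equiv (MulAut.conj v).toEquiv _ _ fun u => ?_
    show (sg cs η (u : W) : ℂ) * F (y * v * u * (y * v)⁻¹) =
      (sg cs η ((v * u * v⁻¹ : WJ cs J) : W) : ℂ) * F (y * ((v * u * v⁻¹ : WJ cs J) : W) * y⁻¹)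
    have h1 : sg cs η ((v * u * v⁻¹ : WJ cs J) : W) = sg cs η (u : W) := by
      push_cast
      rw [sg_mul cs hη, sg_mul cs hη, sg_inv cs hη, mul_comm (sg cs η (v : W)), mul_assoc, sg_sq cs hη, mul_one]
    rw [h1]
    congr 2
    push_cast
    group
  choose vv hvm hv1 hv2 using fun y => O.lift hη y
  -- `S` and the sign of the representative
  have hS1 : ∀ y, (ε (r (a.sw y)) : ℂ) * S y = S y := by
    intro y
    rcases O.e1 (a.sw y) with h0 | ⟨h0, ω, hω, hη1, h4⟩
    · rw [h0]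
      simp
    · have h3 : S y = 0 := by
        rw [← hSt y ⟨vv y, hvm y⟩]
        show S (y * vv y) = 0
        have hx : cs.wordProd ω ∈ WJ cs J := wordProd_mem_WJ cs hω
        have h5 : S (y * vv y) = -S (y * vv y) := by
          rw [← Finset.sum_neg_distrib]
          refine Fintype.sum_equiv (Equiv.mulRight (⟨cs.wordProd ω, hx⟩ : WJ cs J)) _ _ fun u => ?_
          show (sg cs η (u : W) : ℂ) * F (y * vv y * u * (y * vv y)⁻¹) =
            -((sg cs η ((u : W) * cs.wordProd ω) : ℂ) * F (y * vv y * ((u : W) * cs.wordProd ω) * (y * vv y)⁻¹))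
          have h7 : a.sw (y * vv y) = a.sw (y * vv y * cs.wordProd ω) := by
            rw [a.sw_wordProd, hv1, h4]
          have h8 := a.mem_P_of_sw h7
          have h9 : y * vv y * ((u : W) * cs.wordProd ω) * (y * vv y)⁻¹ =
              y * vv y * (u : W) * (y * vv y)⁻¹ * (y * vv y * cs.wordProd ω * (y * vv y)⁻¹) := by
            group
          rw [h9, hF.right _ h8, sg_mul cs hη, sg_wordProd cs hη, hη1]
          push_cast
          ring
        have h6 : (2 : ℂ) * S (y * vv y) = 0 := by linear_combination h5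
        exact (mul_eq_zero.1 h6).resolve_left two_ne_zero
      rw [h3, mul_zero]
  -- the main double count
  have hmain : (Nat.card (WJ cs J) : ℂ) * ∑ y, (ε (a.sw y) : ℂ) * F (y * (y * vv y)⁻¹) = ∑ y, S y := by
    have h1 : ∀ u : WJ cs J, ∑ y, (ε (a.sw y) : ℂ) * F (y * (y * vv y)⁻¹) =
        ∑ y, (sg cs η (u : W) : ℂ) * ε (a.sw y) * F (y * u * (y * vv y)⁻¹) := by
      intro u
      refine Fintype.sum_equiv (Equiv.mulRight (u : W)⁻¹) _ _ fun y => ?_
      show (ε (a.sw y) : ℂ) * F (y * (y * vv y)⁻¹) = (sg cs η (u : W) : ℂ) * ε (a.sw (y * (u : W)⁻¹)) *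
        F (y * (u : W)⁻¹ * u * (y * (u : W)⁻¹ * vv (y * (u : W)⁻¹))⁻¹)
      rw [O.eps_mul hη y (inv_mem u.2), sg_inv cs hη]
      have h2 : (sg cs η (u : W) : ℂ) * ((sg cs η (u : W) * ε (a.sw y) : ℤ) : ℂ) = ε (a.sw y) := by
        rw [← Int.cast_mul, ← mul_assoc, sg_sq cs hη, one_mul]
      rw [h2, inv_mul_cancel_right]
      congr 1
      set z := y * (u : W)⁻¹ with hz
      have h3 : a.sw (z * vv z) = a.sw (y * vv y) := by
        rw [hv1, hv1, hz, O.r_eq y (inv_mem u.2)]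
      have h4 := a.mem_P_of_sw h3
      have h5 : y * (y * vv y)⁻¹ = y * (z * vv z)⁻¹ * (y * vv y * (z * vv z)⁻¹)⁻¹ := by group
      rw [h5, hF.right _ (inv_mem h4)]
    have h2 : (Nat.card (WJ cs J) : ℂ) * ∑ y, (ε (a.sw y) : ℂ) * F (y * (y * vv y)⁻¹) =
        ∑ u : WJ cs J, ∑ y, (sg cs η (u : W) : ℂ) * ε (a.sw y) * F (y * u * (y * vv y)⁻¹) := by
      rw [← Finset.sum_congr rfl fun u _ => h1 u, Finset.sum_const, Finset.card_univ, nsmul_eq_mul,
        Nat.card_eq_fintype_card]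
    rw [h2, Finset.sum_comm]
    refine Finset.sum_congr rfl fun y _ => ?_
    rw [← hS1 y, ← hSt y ⟨vv y, hvm y⟩, Finset.mul_sum]
    refine Fintype.sum_equiv (Equiv.mulLeft (⟨vv y, hvm y⟩ : WJ cs J)⁻¹) _ _ fun u => ?_
    show (sg cs η (u : W) : ℂ) * ε (a.sw y) * F (y * u * (y * vv y)⁻¹) = (ε (r (a.sw y)) : ℂ) *
      ((sg cs η ((vv y)⁻¹ * (u : W)) : ℂ) * F (y * vv y * ((vv y)⁻¹ * (u : W)) * (y * vv y)⁻¹))
    have h3 : y * vv y * ((vv y)⁻¹ * (u : W)) = y * u := by group
    rw [h3, sg_mul cs hη, sg_inv cs hη]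
    have h4 : (ε (a.sw y) : ℂ) = sg cs η (vv y) * ε (r (a.sw y)) := by
      have := hv2 y
      exact_mod_cast this
    rw [h4]
    push_cast
    ring
  have hval : ∀ y, F (y * (y * vv y)⁻¹) = v (a.sw y) := by
    intro y
    obtain ⟨ω, h1, h2⟩ := hv (a.sw y)
    rw [← hv1 y] at h1
    rw [kern hF hf h1, h2]
  rw [Finset.sum_congr rfl fun y _ => by rw [hval y]] at hmain
  have h1 := sum_sw (a := a) (fun s => (ε s : ℂ) * v s)
  rw [h1] at hmain
  have h2 : (Nat.card W : ℂ) * ∑ u : WJ cs J, (sg cs η (u : W) : ℂ) * φ u = φ 1 * ∑ y, S y := by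
    have h3 : ∀ u : WJ cs J, (Nat.card W : ℂ) * ((sg cs η (u : W) : ℂ) * φ u) =
        φ 1 * ∑ y, (sg cs η (u : W) : ℂ) * F (y * u * y⁻¹) := by
      intro u
      have h4 := hF.conj (u : W)
      rw [← Finset.mul_sum]
      linear_combination -(sg cs η (u : W) : ℂ) * h4
    rw [Finset.mul_sum, Finset.sum_congr rfl fun u _ => h3 u, ← Finset.mul_sum, Finset.sum_comm]
  rw [card_eq a, ← hmain] at h2
  refine mul_left_cancel₀ hP0 ?_
  linear_combination h2

end Orb

end Cfsg.Agent.H116.LB.KG
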