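import Cfsg.Agent.H416.LB.MuTab
import Cfsg.Agent.H656.LB.Tab8

/-!
# S4879, row `E₈`: more multiplicities as histogram sums (helper116; tables of helper348 / helper656)

* `muE7` : the parabolic subgroup of type `E₇` on the `6720` points;
* `mu5b6`, `mu5b7` : the types D4A1, 2A2+2A1, 2A3 on the `6720` points and on the `240` roots.
-/

set_option autoImplicit false
set_option maxRecDepth 20000

namespace Cfsg.Agent.H116.LB

open Finset Cfsg.Agent.H416.LB

/-- `E₇`, 6720 points -/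
def HE7L : List ℤ :=
  [8, 200, 380, 146, 840, 472, 472, 94, 1040, 4, 600, 50, 50, 420, 656, 62, 62, 280, 280, 64, 360, 92, 4, 50, 32, 2]

/-- D4A1, 2A2+2A1, 2A3, 6720 points -/
def HXb_6L : List (List ℤ) := [
  [278, 1212, 492, 258, 1122, 168, 168, 600, 1008, 8, 240, 24, 24, 204, 240, 78, 78, 24, 24, 126, 186, 36, 34, 66, 18, 4],
  [320, 904, 508, 332, 400, 152, 152, 492, 1168, 8, 456, 12, 12, 256, 304, 36, 36, 152, 152, 192, 352, 76, 64, 116, 64, 4],
  [162, 744, 528, 260, 524, 360, 360, 374, 1224, 4, 432, 16, 16, 296, 456, 64, 64, 168, 168, 134, 188, 48, 36, 68, 24, 2]]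

/-- D4A1, 2A2+2A1, 2A3, 240 roots -/
def HXb_7L : List (List ℤ) := [
  [34, 130, 60, 14, 2],
  [32, 92, 84, 28, 4],
  [22, 100, 96, 20, 2]]

def HE7 (c : Fin 26) : ℤ := HE7L.getD c 0

def HXb_6 (j : Fin 3) (c : Fin 26) : ℤ := (HXb_6L.getD j []).getD c 0

def HXb_7 (j : Fin 3) (c : Fin 5) : ℤ := (HXb_7L.getD j []).getD c 0

/-- **`E₇` on the 6720 points.** -/
theorem muE7 (k : Fin 10) : (dg6 k : ℚ) * ∑ c, (HE7 c : ℚ) * av6 k c = if (k : ℕ) ≤ 1 then 6720 else 0 := by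
  have h : ∀ k : Fin 10, (dg6 k : ℤ) * ((List.finRange 26).map fun c => HE7 c * AM k c).sum =
      7257600 * (if (k : ℕ) ≤ 1 then 1 else 0) := by decide +kernel
  rw [sum6 (h k)]
  split_ifs <;> norm_num

/-- **D4A1, 2A2+2A1, 2A3 on the 6720 points.** -/
theorem mu5b6 (k : Fin 10) (j : Fin 3) :
    (dg6 k : ℚ) * ∑ c, (HXb_6 j c : ℚ) * av6 k c = 6720 * (H656.LB.X5b (ix6 k) j : ℚ) := by
  have h : ∀ (k : Fin 10) (j : Fin 3), (dg6 k : ℤ) * ((List.finRange 26).map fun c => HXb_6 j c * AM k c).sum =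
      7257600 * H656.LB.X5b (ix6 k) j := by decide +kernel
  exact sum6 (h k j)

/-- **D4A1, 2A2+2A1, 2A3 on the roots.** -/
theorem mu5b7 (k : Fin 5) (j : Fin 3) :
    (dg7 k : ℚ) * ∑ c, (HXb_7 j c : ℚ) * av7 k c = 240 * (H656.LB.X5b (ix7 k) j : ℚ) := by
  have h : ∀ (k : Fin 5) (j : Fin 3), (dg7 k : ℤ) * ((List.finRange 5).map fun c => HXb_7 j c * A5 k c).sum =
      20160 * H656.LB.X5b (ix7 k) j := by decide +kernel
  exact sum7 (h k j)

end Cfsg.Agent.H116.LB
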