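import Cfsg.Agent.H116.LB.KEqG
import Cfsg.Agent.H970.LB.Act

/-!
# `H970.LB.Act` and `H116.LB.KG.Act` are the same structure (helper116, for S4879)
-/

set_option autoImplicit false

namespace Cfsg.Agent.H116.LB.KG

open Cfsg CoxeterSystem

variable {I W : Type*} [Fintype I] [DecidableEq I] [Group W] {M : CoxeterMatrix I} {cs : CoxeterSystem M W} {N : ℕ}

/-- from helper970's structure -/
def ofAct (t : H970.LB.Act cs N) : Act cs N := ⟨t.st, t.o, t.sw, t.sw_one, t.sw_mul_simple, t.surj⟩

/-- to helper970's structure -/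
def toAct (a : Act cs N) : H970.LB.Act cs N := ⟨a.st, a.o, a.sw, a.sw_one, a.sw_mul_simple, a.surj⟩

theorem P_ofAct (t : H970.LB.Act cs N) : (ofAct t).P = t.P := rfl

theorem P_toAct (a : Act cs N) : (toAct a).P = a.P := rfl

theorem sw_ofAct (t : H970.LB.Act cs N) (w : W) : (ofAct t).sw w = t.sw w := rfl

theorem zz_ofAct (t : H970.LB.Act cs N) (ω : List I) (s : Fin N) : zz (ofAct t) ω s = t.zz ω s := rfl

theorem zz_toAct (a : Act cs N) (ω : List I) (s : Fin N) : (toAct a).zz ω s = zz a ω s := rfl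

end Cfsg.Agent.H116.LB.KG
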